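import Cfsg.Agent.CosetEnum.SuzU43.H.Data

/-! Generated: checks of the rows. -/

set_option autoImplicit false
set_option maxRecDepth 100000

namespace CfsgLib.CosetEnum.SuzU43.H

open CfsgLib.CosetEnum

theorem rows0 : allFrom (checkRow epF (fun x => x) 93587 7 nodeF TF tfF 22880) 0 256 = true := by
  decide +kernel

theorem rows256 : allFrom (checkRow epF (fun x => x) 93587 7 nodeF TF tfF 22880) 256 256 = true := by
  decide +kernel

theorem rows512 : allFrom (checkRow epF (fun x => x) 93587 7 nodeF TF tfF 22880) 512 256 = true := by
  decide +kernel

theorem rows768 : allFrom (checkRow epF (fun x => x) 93587 7 nodeF TF tfF 22880) 768 256 = true := by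
  decide +kernel

theorem rows1024 : allFrom (checkRow epF (fun x => x) 93587 7 nodeF TF tfF 22880) 1024 256 = true := by
  decide +kernel

theorem rows1280 : allFrom (checkRow epF (fun x => x) 93587 7 nodeF TF tfF 22880) 1280 256 = true := by
  decide +kernel

theorem rows1536 : allFrom (checkRow epF (fun x => x) 93587 7 nodeF TF tfF 22880) 1536 256 = true := by
  decide +kernel

theorem rows1792 : allFrom (checkRow epF (fun x => x) 93587 7 nodeF TF tfF 22880) 1792 256 = true := by
  decide +kernel

theorem rows2048 : allFrom (checkRow epF (fun x => x) 93587 7 nodeF TF tfF 22880) 2048 256 = true := by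
  decide +kernel

theorem rows2304 : allFrom (checkRow epF (fun x => x) 93587 7 nodeF TF tfF 22880) 2304 256 = true := by
  decide +kernel

theorem rows2560 : allFrom (checkRow epF (fun x => x) 93587 7 nodeF TF tfF 22880) 2560 256 = true := by
  decide +kernel

theorem rows2816 : allFrom (checkRow epF (fun x => x) 93587 7 nodeF TF tfF 22880) 2816 256 = true := by
  decide +kernel

theorem rows3072 : allFrom (checkRow epF (fun x => x) 93587 7 nodeF TF tfF 22880) 3072 256 = true := by
  decide +kernel

theorem rows3328 : allFrom (checkRow epF (fun x => x) 93587 7 nodeF TF tfF 22880) 3328 256 = true := by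
  decide +kernel

theorem rows3584 : allFrom (checkRow epF (fun x => x) 93587 7 nodeF TF tfF 22880) 3584 256 = true := by
  decide +kernel

theorem rows3840 : allFrom (checkRow epF (fun x => x) 93587 7 nodeF TF tfF 22880) 3840 256 = true := by
  decide +kernel

end CfsgLib.CosetEnum.SuzU43.H
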