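import Cfsg.Agent.CosetEnum.SuzU43.H.Data

/-! Generated: checks of the rows. -/

set_option autoImplicit false
set_option maxRecDepth 100000

namespace CfsgLib.CosetEnum.SuzU43.H

open CfsgLib.CosetEnum

theorem rows4096 : allFrom (checkRow epF (fun x => x) 93587 7 nodeF TF tfF 22880) 4096 256 = true := by
  decide +kernel

theorem rows4352 : allFrom (checkRow epF (fun x => x) 93587 7 nodeF TF tfF 22880) 4352 256 = true := by
  decide +kernel

theorem rows4608 : allFrom (checkRow epF (fun x => x) 93587 7 nodeF TF tfF 22880) 4608 256 = true := by
  decide +kernel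

theorem rows4864 : allFrom (checkRow epF (fun x => x) 93587 7 nodeF TF tfF 22880) 4864 256 = true := by
  decide +kernel

theorem rows5120 : allFrom (checkRow epF (fun x => x) 93587 7 nodeF TF tfF 22880) 5120 256 = true := by
  decide +kernel

theorem rows5376 : allFrom (checkRow epF (fun x => x) 93587 7 nodeF TF tfF 22880) 5376 256 = true := by
  decide +kernel

theorem rows5632 : allFrom (checkRow epF (fun x => x) 93587 7 nodeF TF tfF 22880) 5632 256 = true := by
  decide +kernel

theorem rows5888 : allFrom (checkRow epF (fun x => x) 93587 7 nodeF TF tfF 22880) 5888 256 = true := by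
  decide +kernel

theorem rows6144 : allFrom (checkRow epF (fun x => x) 93587 7 nodeF TF tfF 22880) 6144 256 = true := by
  decide +kernel

theorem rows6400 : allFrom (checkRow epF (fun x => x) 93587 7 nodeF TF tfF 22880) 6400 256 = true := by
  decide +kernel

theorem rows6656 : allFrom (checkRow epF (fun x => x) 93587 7 nodeF TF tfF 22880) 6656 256 = true := by
  decide +kernel

theorem rows6912 : allFrom (checkRow epF (fun x => x) 93587 7 nodeF TF tfF 22880) 6912 256 = true := by
  decide +kernel

theorem rows7168 : allFrom (checkRow epF (fun x => x) 93587 7 nodeF TF tfF 22880) 7168 256 = true := by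
  decide +kernel

theorem rows7424 : allFrom (checkRow epF (fun x => x) 93587 7 nodeF TF tfF 22880) 7424 256 = true := by
  decide +kernel

theorem rows7680 : allFrom (checkRow epF (fun x => x) 93587 7 nodeF TF tfF 22880) 7680 256 = true := by
  decide +kernel

theorem rows7936 : allFrom (checkRow epF (fun x => x) 93587 7 nodeF TF tfF 22880) 7936 256 = true := by
  decide +kernel

end CfsgLib.CosetEnum.SuzU43.H
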