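import Cfsg.Agent.CosetEnum.SuzU43.H.Data

/-! Generated: checks of the rows. -/

set_option autoImplicit false
set_option maxRecDepth 100000

namespace CfsgLib.CosetEnum.SuzU43.H

open CfsgLib.CosetEnum

theorem rows8192 : allFrom (checkRow epF (fun x => x) 93587 7 nodeF TF tfF 22880) 8192 256 = true := by
  decide +kernel

theorem rows8448 : allFrom (checkRow epF (fun x => x) 93587 7 nodeF TF tfF 22880) 8448 256 = true := by
  decide +kernel

theorem rows8704 : allFrom (checkRow epF (fun x => x) 93587 7 nodeF TF tfF 22880) 8704 256 = true := by
  decide +kernel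

theorem rows8960 : allFrom (checkRow epF (fun x => x) 93587 7 nodeF TF tfF 22880) 8960 256 = true := by
  decide +kernel

theorem rows9216 : allFrom (checkRow epF (fun x => x) 93587 7 nodeF TF tfF 22880) 9216 256 = true := by
  decide +kernel

theorem rows9472 : allFrom (checkRow epF (fun x => x) 93587 7 nodeF TF tfF 22880) 9472 256 = true := by
  decide +kernel

theorem rows9728 : allFrom (checkRow epF (fun x => x) 93587 7 nodeF TF tfF 22880) 9728 256 = true := by
  decide +kernel

theorem rows9984 : allFrom (checkRow epF (fun x => x) 93587 7 nodeF TF tfF 22880) 9984 256 = true := by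
  decide +kernel

theorem rows10240 : allFrom (checkRow epF (fun x => x) 93587 7 nodeF TF tfF 22880) 10240 256 = true := by
  decide +kernel

theorem rows10496 : allFrom (checkRow epF (fun x => x) 93587 7 nodeF TF tfF 22880) 10496 256 = true := by
  decide +kernel

theorem rows10752 : allFrom (checkRow epF (fun x => x) 93587 7 nodeF TF tfF 22880) 10752 256 = true := by
  decide +kernel

theorem rows11008 : allFrom (checkRow epF (fun x => x) 93587 7 nodeF TF tfF 22880) 11008 256 = true := by
  decide +kernel

theorem rows11264 : allFrom (checkRow epF (fun x => x) 93587 7 nodeF TF tfF 22880) 11264 256 = true := by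
  decide +kernel

theorem rows11520 : allFrom (checkRow epF (fun x => x) 93587 7 nodeF TF tfF 22880) 11520 256 = true := by
  decide +kernel

theorem rows11776 : allFrom (checkRow epF (fun x => x) 93587 7 nodeF TF tfF 22880) 11776 256 = true := by
  decide +kernel

theorem rows12032 : allFrom (checkRow epF (fun x => x) 93587 7 nodeF TF tfF 22880) 12032 256 = true := by
  decide +kernel

end CfsgLib.CosetEnum.SuzU43.H
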