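import Cfsg.Agent.CosetEnum.SuzU43.H.Data

/-! Generated: checks of the rows. -/

set_option autoImplicit false
set_option maxRecDepth 100000

namespace CfsgLib.CosetEnum.SuzU43.H

open CfsgLib.CosetEnum

theorem rows12288 : allFrom (checkRow epF (fun x => x) 93587 7 nodeF TF tfF 22880) 12288 256 = true := by
  decide +kernel

theorem rows12544 : allFrom (checkRow epF (fun x => x) 93587 7 nodeF TF tfF 22880) 12544 256 = true := by
  decide +kernel

theorem rows12800 : allFrom (checkRow epF (fun x => x) 93587 7 nodeF TF tfF 22880) 12800 256 = true := by
  decide +kernel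

theorem rows13056 : allFrom (checkRow epF (fun x => x) 93587 7 nodeF TF tfF 22880) 13056 256 = true := by
  decide +kernel

theorem rows13312 : allFrom (checkRow epF (fun x => x) 93587 7 nodeF TF tfF 22880) 13312 256 = true := by
  decide +kernel

theorem rows13568 : allFrom (checkRow epF (fun x => x) 93587 7 nodeF TF tfF 22880) 13568 256 = true := by
  decide +kernel

theorem rows13824 : allFrom (checkRow epF (fun x => x) 93587 7 nodeF TF tfF 22880) 13824 256 = true := by
  decide +kernel

theorem rows14080 : allFrom (checkRow epF (fun x => x) 93587 7 nodeF TF tfF 22880) 14080 256 = true := by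
  decide +kernel

theorem rows14336 : allFrom (checkRow epF (fun x => x) 93587 7 nodeF TF tfF 22880) 14336 256 = true := by
  decide +kernel

theorem rows14592 : allFrom (checkRow epF (fun x => x) 93587 7 nodeF TF tfF 22880) 14592 256 = true := by
  decide +kernel

theorem rows14848 : allFrom (checkRow epF (fun x => x) 93587 7 nodeF TF tfF 22880) 14848 256 = true := by
  decide +kernel

theorem rows15104 : allFrom (checkRow epF (fun x => x) 93587 7 nodeF TF tfF 22880) 15104 256 = true := by
  decide +kernel

theorem rows15360 : allFrom (checkRow epF (fun x => x) 93587 7 nodeF TF tfF 22880) 15360 256 = true := by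
  decide +kernel

theorem rows15616 : allFrom (checkRow epF (fun x => x) 93587 7 nodeF TF tfF 22880) 15616 256 = true := by
  decide +kernel

theorem rows15872 : allFrom (checkRow epF (fun x => x) 93587 7 nodeF TF tfF 22880) 15872 256 = true := by
  decide +kernel

theorem rows16128 : allFrom (checkRow epF (fun x => x) 93587 7 nodeF TF tfF 22880) 16128 256 = true := by
  decide +kernel

end CfsgLib.CosetEnum.SuzU43.H
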