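import Cfsg.Agent.CosetEnum.SuzU43.H.Data

/-! Generated: checks of the rows. -/

set_option autoImplicit false
set_option maxRecDepth 100000

namespace CfsgLib.CosetEnum.SuzU43.H

open CfsgLib.CosetEnum

theorem rows16384 : allFrom (checkRow epF (fun x => x) 93587 7 nodeF TF tfF 22880) 16384 256 = true := by
  decide +kernel

theorem rows16640 : allFrom (checkRow epF (fun x => x) 93587 7 nodeF TF tfF 22880) 16640 256 = true := by
  decide +kernel

theorem rows16896 : allFrom (checkRow epF (fun x => x) 93587 7 nodeF TF tfF 22880) 16896 256 = true := by
  decide +kernel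

theorem rows17152 : allFrom (checkRow epF (fun x => x) 93587 7 nodeF TF tfF 22880) 17152 256 = true := by
  decide +kernel

theorem rows17408 : allFrom (checkRow epF (fun x => x) 93587 7 nodeF TF tfF 22880) 17408 256 = true := by
  decide +kernel

theorem rows17664 : allFrom (checkRow epF (fun x => x) 93587 7 nodeF TF tfF 22880) 17664 256 = true := by
  decide +kernel

theorem rows17920 : allFrom (checkRow epF (fun x => x) 93587 7 nodeF TF tfF 22880) 17920 256 = true := by
  decide +kernel

theorem rows18176 : allFrom (checkRow epF (fun x => x) 93587 7 nodeF TF tfF 22880) 18176 256 = true := by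
  decide +kernel

theorem rows18432 : allFrom (checkRow epF (fun x => x) 93587 7 nodeF TF tfF 22880) 18432 256 = true := by
  decide +kernel

theorem rows18688 : allFrom (checkRow epF (fun x => x) 93587 7 nodeF TF tfF 22880) 18688 256 = true := by
  decide +kernel

theorem rows18944 : allFrom (checkRow epF (fun x => x) 93587 7 nodeF TF tfF 22880) 18944 256 = true := by
  decide +kernel

theorem rows19200 : allFrom (checkRow epF (fun x => x) 93587 7 nodeF TF tfF 22880) 19200 256 = true := by
  decide +kernel

theorem rows19456 : allFrom (checkRow epF (fun x => x) 93587 7 nodeF TF tfF 22880) 19456 256 = true := by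
  decide +kernel

theorem rows19712 : allFrom (checkRow epF (fun x => x) 93587 7 nodeF TF tfF 22880) 19712 256 = true := by
  decide +kernel

theorem rows19968 : allFrom (checkRow epF (fun x => x) 93587 7 nodeF TF tfF 22880) 19968 256 = true := by
  decide +kernel

theorem rows20224 : allFrom (checkRow epF (fun x => x) 93587 7 nodeF TF tfF 22880) 20224 256 = true := by
  decide +kernel

end CfsgLib.CosetEnum.SuzU43.H
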